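import Cfsg.Agent.H35.Stable
import Cfsg.Agent.H35.ThompsonA

set_option autoImplicit false

/-!
All `p`-locals containing a piece of a Sylow subgroup normalise `Z(J(P))` in a group of
characteristic `p` type with `p`-stable locals.
-/

namespace Cfsg.Agent.H35

open Subgroup

variable {G : Type*} [Group G] [Finite G] {p : ℕ} [Fact p.Prime]

theorem card_le_ordProj {R K : Subgroup G} (hR : IsPGroup p R) (h : R ≤ K) :
    Nat.card R ≤ p ^ (Nat.card K).factorization p := by
  obtain ⟨i, hi⟩ := IsPGroup.iff_card.1 hR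
  rw [hi]
  refine Nat.pow_le_pow_right (Fact.out : p.Prime).pos ?_
  exact ((Fact.out : p.Prime).pow_dvd_iff_le_factorization Nat.card_pos.ne').1
    (hi ▸ card_dvd_of_le h)

theorem exists_pGroup_card_eq_ordProj {Q K : Subgroup G} (hQ : IsPGroup p Q) (h : Q ≤ K) :
    ∃ T : Subgroup G, Q ≤ T ∧ T ≤ K ∧ IsPGroup p T ∧ Nat.card T = p ^ (Nat.card K).factorization p := by
  obtain ⟨S, hS⟩ := (hQ.comap_of_injective K.subtype K.subtype_injective).exists_le_sylow
  refine ⟨(S : Subgroup K).map K.subtype, fun x hx => ⟨⟨x, h hx⟩, hS hx, rfl⟩, map_subtype_le _,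
    S.isPGroup'.map _, ?_⟩
  rw [card_map_of_injective K.subtype_injective, S.card_eq_multiplicity]

theorem exists_pGroup_gt_in_normalizer {T R : Subgroup G} (hR : IsPGroup p R) (h : T < R) :
    ∃ U : Subgroup G, T < U ∧ U ≤ R ∧ IsPGroup p U ∧ U ≤ normalizer (T : Set G) := by
  refine ⟨R ⊓ normalizer (T : Set G), lt_of_le_of_ne (le_inf h.le le_normalizer) fun he => ?_,
    inf_le_left, hR.to_le inf_le_left, inf_le_right⟩
  have : Group.IsNilpotent R := hR.isNilpotent
  have hlt : T.subgroupOf R < ⊤ := by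
    rw [lt_top_iff_ne_top, Ne, subgroupOf_eq_top]
    exact h.not_ge
  refine (Group.normalizerCondition_of_isNilpotent (G := R) _ hlt).not_ge fun x hx => ?_
  have hxN : (x : G) ∈ normalizer (T : Set G) := by
    refine mem_normalizer_of_forall fun y hy => ?_
    exact (hx (⟨y, h.le hy⟩ : R)).1 hy
  show (x : G) ∈ T
  rw [he]
  exact ⟨x.2, hxN⟩

theorem normalizer_le_normalizer_centerThompsonAOf_of_locals (hp : p ≠ 2)
    (hloc : ∀ Q : Subgroup G, IsPGroup p Q → Q ≠ ⊥ →
      Cfsg.pPrimeCore p ↥(normalizer (Q : Set G)) = ⊥ ∧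
        Cfsg.IsPConstrained p ↥(normalizer (Q : Set G)) ∧
        Cfsg.IsPStable p ↥(normalizer (Q : Set G)))
    (P : Sylow p G) (Q : Subgroup G) (hQP : Q ≤ (P : Subgroup G)) (hQ1 : Q ≠ ⊥) :
    normalizer (Q : Set G) ≤ normalizer (Cfsg.centerThompsonAOf (P : Subgroup G) : Set G) := by
  by_contra hbad
  set H := normalizer (Cfsg.centerThompsonAOf (P : Subgroup G) : Set G) with hH
  have hPH : (P : Subgroup G) ≤ H :=
    le_normalizer.trans (normalizer_le_normalizer_centerThompsonAOf _)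
  let m : Subgroup G → ℕ := fun Q => p ^ (Nat.card ↥(normalizer (Q : Set G) ⊓ H)).factorization p
  obtain ⟨Q₀, ⟨hQ₀H, hQ₀p, hQ₀1, hQ₀bad⟩, hmax⟩ := Set.Finite.exists_maximalFor m
    {Q : Subgroup G | Q ≤ H ∧ IsPGroup p Q ∧ Q ≠ ⊥ ∧ ¬ normalizer (Q : Set G) ≤ H} (Set.toFinite _)
    ⟨Q, hQP.trans hPH, P.isPGroup'.to_le hQP, hQ1, hbad⟩
  have hmax' : ∀ W : Subgroup G, W ≤ H → IsPGroup p W → W ≠ ⊥ → m Q₀ < m W →
      normalizer (W : Set G) ≤ H := by
    intro W h1 h2 h3 h4
    by_contra hW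
    exact absurd (hmax (j := W) ⟨h1, h2, h3, hW⟩ h4.le) h4.not_ge
  obtain ⟨T₀, hQT, hT₀le, hT₀p, hT₀card⟩ :=
    exists_pGroup_card_eq_ordProj hQ₀p (le_inf le_normalizer hQ₀H : Q₀ ≤ normalizer (Q₀ : Set G) ⊓ H)
  -- conjugate `T₀` into `P` inside `H`
  obtain ⟨R, hR⟩ := (hT₀p.comap_of_injective H.subtype H.subtype_injective).exists_le_sylow
  obtain ⟨h, hh⟩ := MulAction.exists_smul_eq H R (P.subtype hPH)
  set c := (MulAut.conj (h : G)).toMonoidHom with hc
  have hcinj : Function.Injective c := (MulAut.conj (h : G)).injective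
  set T := T₀.map c with hT
  set Q₁ := Q₀.map c with hQ₁
  have hcH : H.map c = H := Subgroup.mem_normalizer_iff_map_conj_eq.1 (le_normalizer h.2)
  have hTP : T ≤ (P : Subgroup G) := by
    rintro _ ⟨x, hx, rfl⟩
    have hxH : x ∈ H := (hT₀le hx).2
    have h1 : MulAut.conj h (⟨x, hxH⟩ : H) ∈ ((h • R : Sylow p H) : Subgroup H) :=
      ⟨⟨x, hxH⟩, hR hx, rfl⟩
    rw [hh] at h1
    exact h1
  have hN1 : normalizer (Q₁ : Set G) = (normalizer (Q₀ : Set G)).map c :=
    (map_normalizer_eq_of_bijective Q₀ (MulAut.conj (h : G)).bijective).symm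
  set M := normalizer (Q₁ : Set G) with hM
  have hMK : M ⊓ H = (normalizer (Q₀ : Set G) ⊓ H).map c := by
    rw [hN1, map_inf _ _ _ hcinj, hcH]
  have hm1 : m Q₁ = m Q₀ := by
    show p ^ _ = p ^ _
    rw [← hM, hMK, card_map_of_injective hcinj]
  have hTcard : Nat.card T = m Q₀ := by rw [hT, card_map_of_injective hcinj, hT₀card]
  have hQ₁bad : ¬ M ≤ H := by
    intro hle
    apply hQ₀bad
    rw [hN1, ← hcH, map_le_map_iff_of_injective hcinj] at hle
    exact hle
  have hQ₁T : Q₁ ≤ T := map_mono hQT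
  have hQ₁1 : Q₁ ≠ ⊥ := by
    rw [hQ₁, Ne, map_eq_bot_iff_of_injective _ hcinj]
    exact hQ₀1
  have hTM : T ≤ M ⊓ H := hMK ▸ map_mono hT₀le
  have hT1 : T ≠ ⊥ := fun h0 => hQ₁1 (le_bot_iff.1 (h0 ▸ hQ₁T))
  have hTp : IsPGroup p T := hT₀p.map _
  have hQ₁p : IsPGroup p Q₁ := hTp.to_le hQ₁T
  -- subgroups `W` characteristic in `T`
  have hW : T ≠ (P : Subgroup G) → ∀ W : Subgroup G, W ≤ T → W ≠ ⊥ →
      normalizer (T : Set G) ≤ normalizer (W : Set G) → normalizer (W : Set G) ≤ H := by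
    intro hne W hWT hW1 hNW
    obtain ⟨U, hTU, hUP, hUp, hUN⟩ := exists_pGroup_gt_in_normalizer P.isPGroup' (hTP.lt_of_ne hne)
    refine hmax' W ((hWT.trans hTP).trans hPH) (hTp.to_le hWT) hW1 ?_
    calc m Q₀ = Nat.card T := hTcard.symm
      _ < Nat.card U := lt_of_le_of_ne (card_le_of_le hTU.le) fun he =>
          hTU.ne (eq_of_le_of_card_ge hTU.le he.ge)
      _ ≤ m W := card_le_ordProj hUp (le_inf (hUN.trans hNW) (hUP.trans hPH))
  -- `T` is a Sylow subgroup of `M`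
  obtain ⟨S, hS⟩ := (hTp.comap_of_injective M.subtype M.subtype_injective).exists_le_sylow
  have hTS : T ≤ (S : Subgroup M).map M.subtype := fun x hx => ⟨⟨x, (hTM hx).1⟩, hS hx, rfl⟩
  have hSM : (S : Subgroup M).map M.subtype ≤ M := map_subtype_le _
  have hSeq : (S : Subgroup M).map M.subtype = T := by
    by_contra hne
    have hlt := lt_of_le_of_ne hTS (Ne.symm hne)
    by_cases hTP' : T = (P : Subgroup G)
    · exact hne ((P.3 (S.isPGroup'.map _) (hTP' ▸ hTS)).trans hTP'.symm)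
    · obtain ⟨U, hTU, hUS, hUp, hUN⟩ := exists_pGroup_gt_in_normalizer (S.isPGroup'.map _) hlt
      have hUH : U ≤ M ⊓ H := le_inf (hUS.trans hSM) (hUN.trans (hW hTP' T le_rfl hT1 le_rfl))
      have h1 := card_le_ordProj hUp hUH
      have h2 : Nat.card T < Nat.card U := lt_of_le_of_ne (card_le_of_le hTU.le) fun he =>
        hTU.ne (eq_of_le_of_card_ge hTU.le he.ge)
      change _ ≤ m Q₁ at h1
      omega
  -- `Z(J(T))` is normal in `M`
  obtain ⟨hcore, hcon, hstab⟩ := hloc Q₁ hQ₁p hQ₁1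
  have hn := Cfsg.Agent.H51.pPrimeCore_normal p ↥M
  set q := QuotientGroup.mk' (Cfsg.pPrimeCore p ↥M) with hq
  have hqk : q.ker = ⊥ := (QuotientGroup.ker_mk' _).trans hcore
  have hc' : centralizer (Cfsg.pCore p ↥M : Set ↥M) ≤ Cfsg.pCore p ↥M :=
    (isPConstrained_iff_of_surjective (MonoidHom.id _) Function.surjective_id
      (by rw [(MonoidHom.ker_eq_bot_iff _).2 Function.injective_id, Subgroup.card_bot]; exact Nat.coprime_one_left p)
      hcore).1 hcon
  haveI := centerThompsonAOf_characteristic hp hc'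
    (fun V _ hV => isPStableOn_of_isPStable hcore hstab V hV) S
  have hZmap : (Cfsg.centerThompsonAOf (S : Subgroup M)).map M.subtype = Cfsg.centerThompsonAOf T := by
    rw [map_centerThompsonAOf M.subtype _ M.subtype_injective.injOn, hSeq]
  have hMle : M ≤ normalizer (Cfsg.centerThompsonAOf T : Set G) := by
    rw [← hZmap]
    refine le_trans ?_ (le_normalizer_map _)
    rw [normalizer_eq_top_iff.2 inferInstance, ← MonoidHom.range_eq_map, range_subtype]
  by_cases hTP' : T = (P : Subgroup G)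
  · exact hQ₁bad (by rw [hH, ← hTP']; exact hMle)
  · exact hQ₁bad (hMle.trans (hW hTP' _ (centerThompsonAOf_le T) (centerThompsonAOf_ne_bot hTp hT1)
      (normalizer_le_normalizer_centerThompsonAOf T)))

end Cfsg.Agent.H35
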